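import Cfsg.Agent.Chev.G2Odd.Fusion

/-!
The centralizer of an involution of `G₂(q)`, `q` odd.
-/

set_option autoImplicit false

universe u

namespace Cfsg.Agent.Chev.G2Odd

open Cfsg.Lie
open scoped Matrix MatrixGroups

variable {F : Type u} [Field F]

/-- The short root `SL₂` in the group. -/
noncomputable def l1G (F : Type u) [Field F] : Subgroup ↥(chevG2.group F) :=
  ((PhiG (F := F)).comp (MonoidHom.inl _ _)).range

/-- The long root `SL₂` in the group. -/
noncomputable def l2G (F : Type u) [Field F] : Subgroup ↥(chevG2.group F) :=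
  ((PhiG (F := F)).comp (MonoidHom.inr _ _)).range

theorem centralizer_conj {G : Type*} [Group G] (g t : G) :
    Subgroup.centralizer ({g * t * g⁻¹} : Set G) =
      (Subgroup.centralizer ({t} : Set G)).map (MulAut.conj g).toMonoidHom := by
  ext x
  simp only [Subgroup.mem_map, Subgroup.mem_centralizer_singleton_iff, MulEquiv.coe_toMonoidHom,
    MulAut.conj_apply]
  constructor
  · intro h
    refine ⟨g⁻¹ * x * g, ?_, by group⟩
    calc g⁻¹ * x * g * t = g⁻¹ * (x * (g * t * g⁻¹)) * g := by group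
      _ = g⁻¹ * (g * t * g⁻¹ * x) * g := by rw [h]
      _ = t * (g⁻¹ * x * g) := by group
  · rintro ⟨y, hy, rfl⟩
    rw [conj_mul, conj_mul, hy]

theorem centralizer_structure [Fintype F] (hodd : Odd (Fintype.card F)) (t : ↥(chevG2.group F))
    (ht : orderOf t = 2) :
    Nat.card (Subgroup.centralizer ({t} : Set ↥(chevG2.group F))) =
        Fintype.card F ^ 2 * (Fintype.card F ^ 2 - 1) ^ 2 ∧
      ∃ L₁ L₂ : Subgroup ↥(chevG2.group F),
        Nonempty (L₁ ≃* Matrix.SpecialLinearGroup (Fin 2) F) ∧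
        Nonempty (L₂ ≃* Matrix.SpecialLinearGroup (Fin 2) F) ∧ (∀ x ∈ L₁, ∀ y ∈ L₂, x * y = y * x) ∧
        L₁ ⊓ L₂ = Subgroup.zpowers t ∧
        L₁ ⊔ L₂ ≤ Subgroup.centralizer ({t} : Set ↥(chevG2.group F)) ∧
        (L₁ ⊔ L₂).relIndex (Subgroup.centralizer ({t} : Set ↥(chevG2.group F))) = 2 := by
  have h2 : (2 : F) ≠ 0 := two_ne_zero_of_odd hodd
  obtain ⟨g, hg⟩ := isConj_iff.mp (isConj_tG hodd h2 ht).symm
  set f := (MulAut.conj g).toMonoidHom with hf
  have hfi : Function.Injective f := (MulAut.conj g).injective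
  have hC : Subgroup.centralizer ({t} : Set ↥(chevG2.group F)) = (cen F).map f := by
    rw [← hg]; exact centralizer_conj g (tG F)
  have hY : l1G F ⊔ l2G F = yG F := by
    rw [l1G, l2G, MonoidHom.range_comp, MonoidHom.range_comp, ← Subgroup.map_sup, yG_eq_range]
    conv_rhs => rw [MonoidHom.range_eq_map]
    congr 1
    rw [eq_top_iff]
    rintro ⟨a, b⟩ -
    have : ((a, b) : Matrix.SpecialLinearGroup (Fin 2) F × Matrix.SpecialLinearGroup (Fin 2) F) =
        (MonoidHom.inl _ _) a * (MonoidHom.inr _ _) b := by simp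
    rw [this]
    exact Subgroup.mul_mem_sup (MonoidHom.mem_range.mpr ⟨a, rfl⟩) (MonoidHom.mem_range.mpr ⟨b, rfl⟩)
  have hi1 : Function.Injective ((PhiG (F := F)).comp (MonoidHom.inl _ _)) := fun a b e => phiS_inj (by
    have := congrArg Subtype.val e
    simpa [coe_PhiG, Phi_left] using this)
  have hi2 : Function.Injective ((PhiG (F := F)).comp (MonoidHom.inr _ _)) := fun a b e => phiL_inj (by
    have := congrArg Subtype.val e
    simpa [coe_PhiG, Phi_right] using this)
  refine ⟨?_, (l1G F).map f, (l2G F).map f,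
    ⟨((l1G F).equivMapOfInjective f hfi).symm.trans (MonoidHom.ofInjective hi1).symm⟩,
    ⟨((l2G F).equivMapOfInjective f hfi).symm.trans (MonoidHom.ofInjective hi2).symm⟩, ?_, ?_, ?_, ?_⟩
  · rw [hC, Nat.card_congr ((cen F).equivMapOfInjective f hfi).symm.toEquiv, card_cen h2]
  · rintro _ ⟨_, ⟨a, rfl⟩, rfl⟩ _ ⟨_, ⟨b, rfl⟩, rfl⟩
    rw [← map_mul, ← map_mul]
    congr 1
    simp only [MonoidHom.comp_apply, ← map_mul, MonoidHom.inl_apply, MonoidHom.inr_apply, Prod.mk_mul_mk,
      one_mul, mul_one]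
  · rw [← Subgroup.map_inf _ _ _ hfi, ← hg, show g * tG F * g⁻¹ = f (tG F) from rfl, ← MonoidHom.map_zpowers]
    congr 1
    apply le_antisymm
    · rintro x ⟨⟨a, ha⟩, ⟨b, hb⟩⟩
      have e : Phi (a, b⁻¹) = (1 : GL chevG2.Idx F) := by
        have h1 : Phi (a, (1 : Matrix.SpecialLinearGroup (Fin 2) F)) = Phi (1, b) :=
          congrArg Subtype.val (ha.trans hb.symm)
        rw [show ((a, b⁻¹) : Matrix.SpecialLinearGroup (Fin 2) F × Matrix.SpecialLinearGroup (Fin 2) F) =
          (a, 1) * (1, b)⁻¹ by simp, map_mul, map_inv, h1, mul_inv_cancel]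
      rcases Phi_eq_one.mp e with ⟨rfl, -⟩ | ⟨rfl, -⟩
      · rw [← ha, map_one]; exact one_mem _
      · rw [← ha]; exact Subgroup.mem_zpowers _
    · rw [Subgroup.zpowers_le]
      refine ⟨⟨sl2Z, rfl⟩, ⟨sl2Z, Subtype.ext ?_⟩⟩
      rw [MonoidHom.comp_apply, MonoidHom.inr_apply, coe_PhiG, Phi_right, coe_tG, tz_eq_L]
  · rw [← Subgroup.map_sup, hY, hC]
    exact Subgroup.map_mono (yG_le_cen h2)
  · rw [← Subgroup.map_sup, hY, hC, Subgroup.relIndex_map_map_of_injective _ _ hfi]
    exact index_yG h2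

end Cfsg.Agent.Chev.G2Odd
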